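import Cfsg.Agent.Helper28.C1680.OrbData

set_option autoImplicit false

namespace Cfsg.Agent.Helper28.C1680

theorem orb1_0 : Cfsg.Agent.Helper28.ptChunk (Cfsg.Agent.Helper28.orbPt T 1782 subL 416 ov1 op1 otp1 otw1) 416 256 0 = true := by decide +kernel

theorem orb1_1 : Cfsg.Agent.Helper28.ptChunk (Cfsg.Agent.Helper28.orbPt T 1782 subL 416 ov1 op1 otp1 otw1) 416 256 1 = true := by decide +kernel

end Cfsg.Agent.Helper28.C1680
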