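import Cfsg.Agent.Helper28.C1680.OrbData

set_option autoImplicit false

namespace Cfsg.Agent.Helper28.C1680

theorem orb2_0 : Cfsg.Agent.Helper28.ptChunk (Cfsg.Agent.Helper28.orbPt T 1782 subL 1365 ov2 op2 otp2 otw2) 1365 256 0 = true := by decide +kernel

theorem orb2_1 : Cfsg.Agent.Helper28.ptChunk (Cfsg.Agent.Helper28.orbPt T 1782 subL 1365 ov2 op2 otp2 otw2) 1365 256 1 = true := by decide +kernel

theorem orb2_2 : Cfsg.Agent.Helper28.ptChunk (Cfsg.Agent.Helper28.orbPt T 1782 subL 1365 ov2 op2 otp2 otw2) 1365 256 2 = true := by decide +kernel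

theorem orb2_3 : Cfsg.Agent.Helper28.ptChunk (Cfsg.Agent.Helper28.orbPt T 1782 subL 1365 ov2 op2 otp2 otw2) 1365 256 3 = true := by decide +kernel

theorem orb2_4 : Cfsg.Agent.Helper28.ptChunk (Cfsg.Agent.Helper28.orbPt T 1782 subL 1365 ov2 op2 otp2 otw2) 1365 256 4 = true := by decide +kernel

theorem orb2_5 : Cfsg.Agent.Helper28.ptChunk (Cfsg.Agent.Helper28.orbPt T 1782 subL 1365 ov2 op2 otp2 otw2) 1365 256 5 = true := by decide +kernel

end Cfsg.Agent.Helper28.C1680
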