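import Cfsg.Agent.Helper28.TCO
import Cfsg.Agent.Helper28.C1680.Cert
import Cfsg.Agent.Helper28.C1680.Orb1_0
import Cfsg.Agent.Helper28.C1680.Orb2_0

set_option autoImplicit false

namespace Cfsg.Agent.Helper28.C1680

theorem orb1_all : ∀ t, t < 416 → Cfsg.Agent.Helper28.orbPt T 1782 subL 416 ov1 op1 otp1 otw1 t = true :=
  Cfsg.Agent.Helper28.pts_of_chunks _ 416 256 2 (by decide) (by decide)
    (Cfsg.Agent.Helper28.allLt_succ _ 1 (Cfsg.Agent.Helper28.allLt_succ _ 0 (Cfsg.Agent.Helper28.allLt_zero _) orb1_0) orb1_1)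

theorem ov1_lt : ov1 0 < 1782 := by decide +kernel

theorem orb2_all : ∀ t, t < 1365 → Cfsg.Agent.Helper28.orbPt T 1782 subL 1365 ov2 op2 otp2 otw2 t = true :=
  Cfsg.Agent.Helper28.pts_of_chunks _ 1365 256 6 (by decide) (by decide)
    (Cfsg.Agent.Helper28.allLt_succ _ 5 (Cfsg.Agent.Helper28.allLt_succ _ 4 (Cfsg.Agent.Helper28.allLt_succ _ 3 (Cfsg.Agent.Helper28.allLt_succ _ 2 (Cfsg.Agent.Helper28.allLt_succ _ 1 (Cfsg.Agent.Helper28.allLt_succ _ 0 (Cfsg.Agent.Helper28.allLt_zero _) orb2_0) orb2_1) orb2_2) orb2_3) orb2_4) orb2_5)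

theorem ov2_lt : ov2 0 < 1782 := by decide +kernel

end Cfsg.Agent.Helper28.C1680
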